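import Mathlib.GroupTheory.Sylow
import Mathlib.GroupTheory.SpecificGroups.Alternating
import Mathlib.GroupTheory.Perm.ViaEmbedding
import Mathlib.GroupTheory.Index
import Mathlib.GroupTheory.Perm.Sign
import Mathlib.Tactic.NormNum.Prime
import Mathlib.Tactic.Group

/-!
A group in which fusion in an abelian Sylow `7`-container is induced by elements whose sixteenth power is
central there has no section `A_r` with `r ≥ 7` (owner: helper33).
-/

set_option autoImplicit false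

namespace Cfsg.Agent.ChevTwSec

/-- In `A_r`, `r ≥ 7`, some element of order seven is conjugate to its square. -/
theorem seven_sq_conj {r : ℕ} (hr : 7 ≤ r) :
    ∃ c s : ↥(alternatingGroup (Fin r)), orderOf c = 7 ∧ s * c * s⁻¹ = c ^ 2 := by
  let c0 : Equiv.Perm (Fin 7) :=
    ⟨![1, 2, 3, 4, 5, 6, 0], ![6, 0, 1, 2, 3, 4, 5], by decide, by decide⟩
  let s0 : Equiv.Perm (Fin 7) :=
    ⟨![0, 2, 4, 6, 1, 3, 5], ![0, 4, 1, 5, 2, 6, 3], by decide, by decide⟩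
  have hc : Equiv.Perm.sign c0 = 1 := by decide +kernel
  have hs : Equiv.Perm.sign s0 = 1 := by decide +kernel
  have hconj : s0 * c0 * s0⁻¹ = c0 ^ 2 := by decide +kernel
  have hord : orderOf c0 = 7 :=
    orderOf_eq_prime (hp := ⟨by norm_num⟩) (by decide +kernel) (by decide +kernel)
  let f := Equiv.Perm.viaEmbeddingHom (Fin.castLEEmb hr)
  have hinj : Function.Injective f := Equiv.Perm.viaEmbeddingHom_injective _
  have hsign : ∀ e, Equiv.Perm.sign e = 1 → f e ∈ alternatingGroup (Fin r) := fun e he => by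
    rw [Equiv.Perm.mem_alternatingGroup]
    show Equiv.Perm.sign (Equiv.Perm.viaEmbedding e (Fin.castLEEmb hr)) = 1
    rw [Equiv.Perm.viaEmbedding, Equiv.Perm.sign_extendDomain, he]
  refine ⟨⟨f c0, hsign c0 hc⟩, ⟨f s0, hsign s0 hs⟩, ?_, Subtype.ext ?_⟩
  · rw [← Subgroup.orderOf_coe, orderOf_injective f hinj, hord]
  · show f s0 * f c0 * (f s0)⁻¹ = f c0 ^ 2
    rw [← map_inv, ← map_mul, ← map_mul, ← map_pow, hconj]

theorem no_alt_seven_section {G : Type*} [Group G] [Finite G] (T0 : Subgroup G)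
    (hcomm : ∀ a ∈ T0, ∀ b ∈ T0, a * b = b * a) (hidx : ¬ 7 ∣ T0.index)
    (hfus : ∀ g : G, ∃ n : G, n ^ 16 ∈ T0 ∧ (∀ x ∈ T0, n * x * n⁻¹ ∈ T0) ∧
      ∀ x ∈ T0, g * x * g⁻¹ ∈ T0 → g * x * g⁻¹ = n * x * n⁻¹)
    {r : ℕ} (H : Subgroup G) (ψ : ↥H →* ↥(alternatingGroup (Fin r))) (hψ : Function.Surjective ψ) :
    r ≤ 6 := by
  classical
  by_contra hr
  haveI h7 : Fact (Nat.Prime 7) := ⟨by norm_num⟩
  obtain ⟨c, s, hc, hs⟩ := seven_sq_conj (r := r) (by omega)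
  set L := (Subgroup.zpowers c).comap ψ with hL
  let P : Sylow 7 ↥L := default
  let P' : Subgroup ↥H := (P : Subgroup ↥L).map L.subtype
  -- the Sylow subgroup maps onto `⟨c⟩`
  let ψL : ↥L →* ↥(Subgroup.zpowers c) := (ψ.comp L.subtype).codRestrict _ fun x => x.2
  have hψL : Function.Surjective ψL := fun y => by
    obtain ⟨x, hx⟩ := hψ y.1
    exact ⟨⟨x, show ψ x ∈ Subgroup.zpowers c from hx ▸ y.2⟩, Subtype.ext hx⟩
  have hmapP : Subgroup.map ψL (P : Subgroup ↥L) = ⊤ := by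
    refine Subgroup.index_eq_one.1 ?_
    have h1 : ¬ 7 ∣ (Subgroup.map ψL (P : Subgroup ↥L)).index :=
      fun h => P.not_dvd_index (h.trans (Subgroup.index_map_dvd _ hψL))
    have h2 : (Subgroup.map ψL (P : Subgroup ↥L)).index ∣ 7 := by
      have := (Subgroup.map ψL (P : Subgroup ↥L)).index_dvd_card
      rwa [Nat.card_zpowers, hc] at this
    exact ((Nat.dvd_prime h7.out).1 h2).resolve_right fun h => h1 (by rw [h])
  obtain ⟨x, hxP, hxc⟩ : ∃ x ∈ P', ψ x = c := by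
    have hcmem : (⟨c, Subgroup.mem_zpowers c⟩ : ↥(Subgroup.zpowers c)) ∈
        Subgroup.map ψL (P : Subgroup ↥L) := by rw [hmapP]; trivial
    obtain ⟨x, hx, e⟩ := hcmem
    exact ⟨x, ⟨x, hx, rfl⟩, congrArg Subtype.val e⟩
  -- Frattini
  obtain ⟨k, hk⟩ := hψ s
  have hkL : ∀ l : ↥H, l ∈ L → k * l * k⁻¹ ∈ L := fun l hl => by
    obtain ⟨i, hi⟩ := Subgroup.mem_zpowers_iff.1 (show ψ l ∈ Subgroup.zpowers c from hl)
    refine Subgroup.mem_zpowers_iff.2 ⟨2 * i, ?_⟩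
    rw [map_mul, map_mul, map_inv, hk, ← hi, ← conj_zpow, hs, zpow_mul]
    norm_cast
  have hkinv : ∀ l : ↥H, k * l * k⁻¹ ∈ L → l ∈ L := fun l hl => by
    obtain ⟨i, hi⟩ := Subgroup.mem_zpowers_iff.1 (show ψ (k * l * k⁻¹) ∈ Subgroup.zpowers c from hl)
    refine Subgroup.mem_zpowers_iff.2 ⟨4 * i, ?_⟩
    rw [map_mul, map_mul, map_inv, hk] at hi
    have e4 : s * c ^ 4 * s⁻¹ = c := by
      rw [← conj_pow, hs, ← pow_mul, show 2 * 4 = 7 + 1 from rfl, pow_succ, ← hc, pow_orderOf_eq_one, one_mul]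
    have e : s * c ^ ((4 : ℤ) * i) * s⁻¹ = s * ψ l * s⁻¹ := by
      rw [← hi, zpow_mul, ← conj_zpow, zpow_ofNat, e4]
    exact mul_left_cancel (mul_right_cancel e)
  let θ : ↥L →* ↥L := MonoidHom.mk' (fun l => ⟨k * l * k⁻¹, hkL l l.2⟩) fun a b => Subtype.ext (by simp)
  have hθi : Function.Injective θ := fun a b e => Subtype.ext (by
    have := congrArg Subtype.val e
    simpa [θ] using this)
  have hθs : Function.Surjective θ := fun b =>
    ⟨⟨k⁻¹ * b * k, hkinv _ (by simpa [mul_assoc] using b.2)⟩, Subtype.ext (by simp [θ, mul_assoc])⟩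
  let Q : Sylow 7 ↥L := P.mapSurjective hθs
  obtain ⟨l, hl⟩ := MulAction.exists_smul_eq ↥L Q P
  set k' : ↥H := (l : ↥H) * k with hk'
  have hnormP : ∀ y ∈ P', k' * y * k'⁻¹ ∈ P' := by
    rintro _ ⟨y, hy, rfl⟩
    have h1 : θ y ∈ (Q : Subgroup ↥L) := ⟨y, hy, rfl⟩
    have h2 : l * θ y * l⁻¹ ∈ (P : Subgroup ↥L) := by
      rw [← hl]
      exact ⟨θ y, h1, by simp⟩
    exact ⟨_, h2, by simp [hk', θ, mul_assoc]⟩
  have hk'c : ψ k' * c * (ψ k')⁻¹ = c ^ 2 := by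
    obtain ⟨i, hi⟩ := Subgroup.mem_zpowers_iff.1 (show ψ (l : ↥H) ∈ Subgroup.zpowers c from l.2)
    rw [hk', map_mul, hk, ← hi]
    calc c ^ i * s * c * (c ^ i * s)⁻¹ = c ^ i * (s * c * s⁻¹) * (c ^ i)⁻¹ := by group
      _ = c ^ 2 := by rw [hs]; group
  -- conjugate into `T0`
  have hPP : IsPGroup 7 ↥((P'.map H.subtype)) := (P.isPGroup'.map _).map _
  obtain ⟨S, hS⟩ := hPP.exists_le_sylow
  obtain ⟨S0, hS0⟩ : ∃ S0 : Sylow 7 G, (S0 : Subgroup G) ≤ T0 := by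
    let S1 : Sylow 7 ↥T0 := default
    refine ⟨(S1.isPGroup'.map T0.subtype).toSylow ?_, Subgroup.map_subtype_le _⟩
    rw [Subgroup.index_map_subtype]
    exact Nat.Prime.not_dvd_mul h7.out S1.not_dvd_index hidx
  obtain ⟨g, hg⟩ := MulAction.exists_smul_eq G S S0
  have hinto : ∀ y ∈ P', g * (y : G) * g⁻¹ ∈ T0 := fun y hy => hS0 (by
    rw [← hg]
    exact ⟨(y : G), hS ⟨y, hy, rfl⟩, by simp⟩)
  obtain ⟨n, hn16, hnT, hn⟩ := hfus (g * k' * g⁻¹)
  have hstep : ∀ y ∈ P', g * ((k' * y * k'⁻¹ : ↥H) : G) * g⁻¹ = n * (g * (y : G) * g⁻¹) * n⁻¹ := fun y hy => by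
    have h1 := hinto _ (hnormP y hy)
    push_cast at h1 ⊢
    have e : g * k' * g⁻¹ * (g * y * g⁻¹) * (g * k' * g⁻¹)⁻¹ = g * (k' * y * k'⁻¹ : G) * g⁻¹ := by push_cast; group
    have h2 := hn _ (hinto y hy) (by rw [e]; exact h1)
    rw [e] at h2
    exact h2
  have hiter : ∀ j : ℕ, ∀ y ∈ P', k' ^ j * y * (k' ^ j)⁻¹ ∈ P' ∧
      g * ((k' ^ j * y * (k' ^ j)⁻¹ : ↥H) : G) * g⁻¹ = n ^ j * (g * (y : G) * g⁻¹) * (n ^ j)⁻¹ := by
    intro j
    induction j with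
    | zero => intro y hy; simp [hy]
    | succ j ih =>
      intro y hy
      obtain ⟨h1, h2⟩ := ih y hy
      have e : k' ^ (j + 1) * y * (k' ^ (j + 1))⁻¹ = k' * (k' ^ j * y * (k' ^ j)⁻¹) * k'⁻¹ := by
        rw [pow_succ']; group
      rw [e]
      refine ⟨hnormP _ h1, ?_⟩
      rw [hstep _ h1, h2, pow_succ']
      group
  have hfix : k' ^ 16 * x * (k' ^ 16)⁻¹ = x := by
    obtain ⟨-, h2⟩ := hiter 16 x hxP
    rw [hcomm _ hn16 _ (hinto x hxP), mul_inv_cancel_right] at h2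
    exact Subtype.ext (mul_left_cancel (mul_right_cancel h2))
  have hpow : ∀ j : ℕ, (ψ k') ^ j * c * ((ψ k') ^ j)⁻¹ = c ^ (2 ^ j) := by
    intro j
    induction j with
    | zero => simp
    | succ j ih =>
      calc (ψ k') ^ (j + 1) * c * ((ψ k') ^ (j + 1))⁻¹
          = ψ k' * ((ψ k') ^ j * c * ((ψ k') ^ j)⁻¹) * (ψ k')⁻¹ := by rw [pow_succ']; group
        _ = c ^ 2 ^ (j + 1) := by rw [ih, ← conj_pow, hk'c, ← pow_mul, pow_succ']
  have h := congrArg ψ hfix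
  rw [map_mul, map_mul, map_inv, map_pow, hxc, hpow 16] at h
  have h' : c ^ 65535 = 1 := mul_right_cancel (b := c) (by
    rw [← pow_succ, one_mul]
    exact h)
  exact absurd (hc ▸ orderOf_dvd_of_pow_eq_one h' :) (by decide)

end Cfsg.Agent.ChevTwSec
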