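import Cfsg.Agent.ChevTwSec.G2Weyl
import Cfsg.Agent.ChevTwSec.Fusion
import Cfsg.Agent.ChevTw.TwD4Thms
import Cfsg.Agent.ChevTw.TwD4Diag
import Cfsg.Agent.ChevTwOrd.D4
import Cfsg.Agent.Chev.FieldFix
import Mathlib.FieldTheory.Finite.Extension

/-! Alternating sections of ³D₄(q) (owner: helper33). -/

set_option autoImplicit false

namespace Cfsg.Agent.ChevTwSec

open Cfsg.Lie Cfsg.Agent.ChevGrp Cfsg.Agent.ChevTw
open scoped MatrixGroups

/-- A field extension of degree `4` induces an embedding of `³D₄(q)` into `³D₄(q⁴)`. -/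
theorem exists_twistedD4_embedding {K E : Type*} [Field K] [Fintype K] [Field E] {q : ℕ}
    (hK : Fintype.card K = q ^ 3) (f : K →+* E) :
    ∃ ι : ↥(twistedD4 K q) →* ↥(twistedD4 E (q ^ 4)), Function.Injective ι := by
  let m := Matrix.GeneralLinearGroup.map (n := chevD4.Idx) f
  have h3 : ∀ t : K, t ^ (q ^ 3) = t := fun t => hK ▸ FiniteField.pow_card t
  have h4 : ∀ t : K, t ^ (q ^ 4) = t ^ q := fun t => by rw [pow_succ q 3, pow_mul, h3]
  have h8 : ∀ t : K, t ^ ((q ^ 4) ^ 2) = t ^ (q ^ 2) := fun t => by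
    rw [pow_two (q ^ 4), pow_mul, h4, h4, ← pow_mul, ← pow_two]
  have hle : twistedD4 K q ≤ (twistedD4 E (q ^ 4)).comap m := by
    rw [twistedD4, ChevalleyDatum.genSubgroup, Subgroup.closure_le]
    rintro g ⟨w, hw, hg⟩
    have hg' : g = (w.map fun p => xGL chevD4 K p.1 p.2).prod :=
      Units.ext (by rw [val_word (rulesD4 K)]; exact hg)
    refine Subgroup.mem_comap.2 ?_
    rw [hg', map_list_prod, List.map_map]
    have e : (m ∘ fun p : ℕ × K => xGL chevD4 K p.1 p.2) =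
        fun p : ℕ × K => xGL chevD4 E p.1 (f p.2) :=
      funext fun p => Chev.FieldFix.map_xGL (rulesD4 K) (rulesD4 E) f p.1 p.2
    rw [e]
    rcases hw with ⟨t, ht, r, hr, rfl⟩ | ⟨t, rs, hrs, rfl⟩
    · have h := word_mem_genSubgroup (rulesD4 E) (W := d4Words E (q ^ 4)) (w := [(r, f t)])
        (Or.inl ⟨f t, by rw [← map_pow, h4, ht], r, hr, rfl⟩)
      simpa [twistedD4] using h
    · have h := word_mem_genSubgroup (rulesD4 E) (W := d4Words E (q ^ 4))
        (w := [(rs.1, f t), (rs.2.1, f t ^ (q ^ 4)), (rs.2.2, f t ^ ((q ^ 4) ^ 2))])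
        (Or.inr ⟨f t, rs, hrs, rfl⟩)
      rw [← map_pow, ← map_pow, h4, h8] at h
      simpa [twistedD4] using h
  refine ⟨(m.comp (twistedD4 K q).subtype).codRestrict _ fun g => hle g.2, fun a b e => Subtype.ext (Units.ext ?_)⟩
  exact Matrix.map_injective f.injective
    (congrArg (fun z : ↥(twistedD4 E (q ^ 4)) => (z.1.1 : Matrix chevD4.Idx chevD4.Idx E)) e)

variable {K : Type*} [Field K] [Fintype K] {q : ℕ}

theorem sections_D4 (p : ℕ) [Fact p.Prime] [CharP K p] (hq : IsPrimePow q) (hK : Fintype.card K = q ^ 3)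
    (hpq : p ∣ q) {r : ℕ} (H : Subgroup ↥(twistedD4 K q)) (ψ : ↥H →* ↥(alternatingGroup (Fin r)))
    (hψ : Function.Surjective ψ) : (q % 5 = 1 → r ≤ 6) ∧ (q % 4 = 1 → r ≤ 7) := by
  obtain ⟨len, hR⟩ := (rulesD4 K).root
  set S := glSys (rulesD4 K) with hSdef
  have hq2 : 2 ≤ q := hq.one_lt
  have h1107 := thm_S1107 hq hK
  rw [monomialSubgroup_eq (rulesD4 K) hR, diagonalSubgroup_eq (rulesD4 K) hR, ← hSdef] at h1107
  obtain ⟨φ, hφ, hker⟩ := h1107
  set T := (S.Hbar ⊓ twistedD4 K q).subgroupOf (twistedD4 K q) with hT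
  set N := (S.Nbar ⊓ twistedD4 K q).subgroupOf (twistedD4 K q) with hN
  let e : ↥N ≃* ↥(S.Nbar ⊓ twistedD4 K q) := Subgroup.subgroupOfEquivOfLe inf_le_right
  have hHN : S.Hbar ⊓ twistedD4 K q ≤ S.Nbar ⊓ twistedD4 K q := inf_le_inf_right _ S.Hbar_le_Nbar
  have hkerT : (φ.comp e.toMonoidHom).ker = T.subgroupOf N := by
    ext x
    rw [← MonoidHom.comap_ker, hker]
    rfl
  have hHc := thm_S1106 hq hK
  rw [diagonalSubgroup_eq (rulesD4 K) hR, ← hSdef] at hHc
  have hcop : Nat.Coprime (Nat.card ↥(S.Hbar ⊓ twistedD4 K q)) p := by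
    rw [hHc]
    refine Nat.Coprime.symm ((Fact.out : p.Prime).coprime_iff_not_dvd.2 fun hd => ?_)
    obtain ⟨k, hk⟩ : ∃ k, q = k + 1 := ⟨q - 1, by omega⟩
    have h2 : p ∣ 1 := by
      rcases (Fact.out : p.Prime).dvd_mul.1 hd with h | h
      · have := Nat.dvd_sub hpq ((Fact.out : p.Prime).dvd_of_dvd_pow h)
        rwa [show q - (q - 1) = 1 by omega] at this
      · have h' : p ∣ q * (q + 1) + 1 := by rwa [show q * (q + 1) + 1 = q ^ 2 + q + 1 by ring]
        exact (Nat.dvd_add_right (hpq.mul_right _)).1 h'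
    exact (Fact.out : p.Prime).one_lt.ne' (Nat.dvd_one.1 h2)
  have hmain := section_bound T N (fun x hx => Subgroup.mem_subgroupOf.2 (hHN hx)) (φ.comp e.toMonoidHom)
    (hφ.comp e.surjective) hkerT
    (fun a ha b hb => Subtype.ext (glSys_Hbar_comm (rulesD4 K) hR _
      (Subgroup.mem_inf.1 (Subgroup.mem_subgroupOf.1 ha)).1 _
      (Subgroup.mem_inf.1 (Subgroup.mem_subgroupOf.1 hb)).1))
    (fun g => by
      obtain ⟨n, hn, hf⟩ := torus_fusion (grpD4 hq hK) hR
        (twD4_ok.isLongest (T := twistD4 hq hK) (fun _ => rfl) rfl) p hcop (g := (g : GL chevD4.Idx K)) g.2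
      exact ⟨⟨n, (Subgroup.mem_inf.1 hn).2⟩, hn, fun x hx hgx => Subtype.ext
        (hf _ (Subgroup.mem_subgroupOf.1 hx) (Subgroup.mem_subgroupOf.1 hgx))⟩)
    H ψ hψ
  have hTc : Nat.card ↥T = (q - 1) ^ 2 * (q ^ 2 + q + 1) := by
    rw [hT, Nat.card_congr (Subgroup.subgroupOfEquivOfLe inf_le_right).toEquiv, hHc]
  have hidx : T.index = q ^ 12 * ((q + 1) ^ 2 * (q ^ 2 - q + 1)) * (q ^ 8 + q ^ 4 + 1) := by
    have h := T.card_mul_index
    rw [hTc, Cfsg.Agent.ChevTwOrd.order_D4 hq hK (thm_S1106 hq hK)] at h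
    refine Nat.eq_of_mul_eq_mul_left
      (Nat.mul_pos (pow_pos (show 0 < q - 1 by omega) 2) (show 0 < q ^ 2 + q + 1 by positivity)) (h.trans ?_)
    obtain ⟨k, rfl⟩ : ∃ k, q = k + 1 := ⟨q - 1, by omega⟩
    have e2 : (k + 1) ^ 2 - 1 = k * (k + 1 + 1) := Nat.sub_eq_of_eq_add (by ring)
    have e3 : (k + 1) ^ 2 - (k + 1) + 1 = k * (k + 1) + 1 := by
      congr 1
      exact Nat.sub_eq_of_eq_add (by ring)
    have e6 : (k + 1) ^ 6 - 1 =
        k * ((k + 1) ^ 2 + (k + 1) + 1) * ((k + 1 + 1) * (k * (k + 1) + 1)) :=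
      Nat.sub_eq_of_eq_add (by ring)
    rw [e2, e3, e6, Nat.add_sub_cancel]
    ring
  obtain ⟨k, hk⟩ : ∃ k, q = k + 1 := ⟨q - 1, by omega⟩
  have e3 : q ^ 2 - q + 1 = q * k + 1 := by rw [hk]; congr 1; exact Nat.sub_eq_of_eq_add (by ring)
  refine ⟨fun h5 => hmain.1 ?_, fun h4 => hmain.2 ?_ ?_⟩
  · rw [hidx, e3, Nat.dvd_iff_mod_eq_zero]
    have hk5 : k % 5 = 0 := by omega
    simp [Nat.mul_mod, Nat.add_mod, Nat.pow_mod, h5, hk5]
  · obtain ⟨j, hj⟩ : ∃ j, k = 4 * j := ⟨k / 4, by omega⟩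
    subst hj
    refine ⟨(4 * j + 1) ^ 12 * ((2 * j + 1) ^ 2 * ((4 * j + 1) * (4 * j) + 1)) *
      ((4 * j + 1) ^ 8 + (4 * j + 1) ^ 4 + 1), ?_, ?_⟩
    · rw [hidx, e3, hk]; ring
    · rw [Nat.dvd_iff_mod_eq_zero]
      simp [Nat.mul_mod, Nat.add_mod, Nat.pow_mod]
  · -- involutions of the torus
    set τ := S.tau (rulesD4 K) hR (glSys_HMul (rulesD4 K) hR) with hτ
    have hτker : ∀ c, τ c = 1 → c ∈ rootKer chevD4 K := fun c hc =>
      (S.θ_tau_eq_one_iff (rulesD4 K) hR (glSys_HMul (rulesD4 K) hR) c).1 hc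
    have hker' : τ.ker = rootKer chevD4 K := by
      ext c
      exact S.θ_tau_eq_one_iff (rulesD4 K) hR (glSys_HMul (rulesD4 K) hR) c
    have hsign : ∀ u : Kˣ, u * u = 1 → u = 1 ∨ u = -1 := fun u hu => by
      have h : (u : K) ^ 2 = 1 := by rw [pow_two, ← Units.val_mul, hu, Units.val_one]
      rcases sq_eq_one_iff.1 h with e | e
      · exact Or.inl (Units.ext e)
      · exact Or.inr (Units.ext (by simpa using e))
    let gen : Bool × Bool → GL chevD4.Idx K := fun b =>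
      τ (mkD4 (cond b.1 1 (-1)) (cond b.2 1 (-1)) (cond b.1 1 (-1)) (cond b.1 1 (-1)))
    have hcover : ∀ x ∈ S.Hbar ⊓ twistedD4 K q, x * x = 1 → ∃ b, gen b = x := by
      intro h hh hx2
      obtain ⟨hH, hTw⟩ := Subgroup.mem_inf.1 hh
      rw [← S.tau_range (rulesD4 K) hR (glSys_HMul (rulesD4 K) hR)] at hH
      obtain ⟨c0, rfl⟩ := hH
      have hfix := (grpD4 hq hK).fixed hTw
      rw [sig_tau (twistD4 hq hK) (rulesD4 K) hR (glSys_HMul (rulesD4 K) hR) pD4 pD4_iff q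
        (by omega) (by rw [← frobD4_apply hq hK, map_neg, map_one])
        (fun i t => twistD4_f hq hK (twistD4_f_simple i) t)] at hfix
      have hz : c0⁻¹ * torusMap K pD4 q c0 ∈ rootKer chevD4 K := by
        rw [← hker', MonoidHom.mem_ker, map_mul, map_inv, inv_mul_eq_one]
        exact hfix.symm
      obtain ⟨y, hy, hcy⟩ := exists_fixed_adjustD4 hq hK c0 _ hz (by simp)
      have hτc : τ (c0 * y) = τ c0 := by
        rw [map_mul, show τ y = 1 from MonoidHom.mem_ker.1 (hker' ▸ hy), mul_one]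
      have hc2 : (c0 * y) * (c0 * y) = 1 := by
        have hm : (c0 * y) * (c0 * y) ∈ rootKer chevD4 K ⊓ fixTorusD4 K q :=
          Subgroup.mem_inf.2 ⟨hτker _ (by rw [map_mul, hτc]; exact hx2), mul_mem hcy hcy⟩
        rwa [kerD4_bot hq hK, Subgroup.mem_bot] at hm
      obtain ⟨-, -, e2, e3⟩ := (mem_mkD4_iff _).1 hcy
      have hs : ∀ i, (c0 * y) i ^ 2 = 1 := fun i => by rw [pow_two]; exact congrFun hc2 i
      rw [sign_pow hq hK (hs _)] at e2
      rw [sign_pow hq hK (hs _)] at e3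
      rw [← hτc]
      classical
      refine ⟨(decide ((c0 * y) ⟨0, by decide⟩ = 1), decide ((c0 * y) ⟨1, by decide⟩ = 1)), congrArg τ ?_⟩
      have hc : ∀ u : Kˣ, u * u = 1 → (cond (decide (u = 1)) 1 (-1) : Kˣ) = u := fun u hu => by
        by_cases h : u = 1
        · simp [h]
        · simp [h, ((hsign u hu).resolve_left h).symm]
      rw [funext_iff, forallD4]
      exact ⟨hc _ (congrFun hc2 _), hc _ (congrFun hc2 _), (hc _ (congrFun hc2 _)).trans e2,
        (hc _ (congrFun hc2 _)).trans (e2.trans e3)⟩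
    classical
    haveI : Nonempty {x : ↥(twistedD4 K q) // x ∈ T ∧ x * x = 1} := ⟨⟨1, T.one_mem, one_mul 1⟩⟩
    choose f hf using fun x : {x : ↥(twistedD4 K q) // x ∈ T ∧ x * x = 1} =>
      hcover _ (Subgroup.mem_subgroupOf.1 x.2.1) (congrArg Subtype.val x.2.2)
    refine (Nat.card_le_card_of_injective f fun x y hxy => ?_).trans (by simp)
    exact Subtype.ext (Subtype.ext ((hf x).symm.trans ((congrArg gen hxy).trans (hf y))))

theorem alt_section_D4 (p a : ℕ) [hp : Fact p.Prime] [CharP K p] (ha : 1 ≤ a)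
    (hK : Fintype.card K = (p ^ a) ^ 3) {r : ℕ} (H : Subgroup ↥(twistedD4 K (p ^ a)))
    (ψ : ↥H →* ↥(alternatingGroup (Fin r))) (hψ : Function.Surjective ψ) :
    r ≤ 6 + (if p = 5 then 1 else 0) := by
  have hq : IsPrimePow (p ^ a) := hp.out.isPrimePow.pow (by omega)
  split_ifs with h5
  · refine (sections_D4 p hq hK (dvd_pow_self p (by omega)) H ψ hψ).2 ?_
    rw [h5, Nat.pow_mod]
    simp
  · haveI : Fintype (FiniteField.Extension K p 4) := Fintype.ofFinite _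
    let E := FiniteField.Extension K p 4
    haveI : CharP E p := charP_of_injective_algebraMap (algebraMap K E).injective p
    obtain ⟨ι, hι⟩ := exists_twistedD4_embedding hK (algebraMap K E)
    let ψ' := ψ.comp (H.equivMapOfInjective ι hι).symm.toMonoidHom
    have hE : Fintype.card E = ((p ^ a) ^ 4) ^ 3 := by
      rw [← Nat.card_eq_fintype_card, FiniteField.natCard_extension, Nat.card_eq_fintype_card, hK, ← pow_mul,
        ← pow_mul, ← pow_mul, ← pow_mul]
    refine (sections_D4 (K := E) p (hq.pow (by norm_num)) hE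
      ((dvd_pow_self p (show a ≠ 0 by omega)).trans (dvd_pow_self _ (by norm_num))) (H.map ι) ψ'
      (hψ.comp (H.equivMapOfInjective ι hι).symm.surjective)).1 ?_
    have hne : p % 5 ≠ 0 := fun h =>
      h5 ((Nat.prime_dvd_prime_iff_eq (by norm_num) hp.out).1 (Nat.dvd_of_mod_eq_zero h)).symm
    rw [← pow_mul, mul_comm, pow_mul, Nat.pow_mod, Nat.pow_mod p]
    have : p % 5 < 5 := Nat.mod_lt _ (by norm_num)
    interval_cases h : p % 5 <;> simp_all

end Cfsg.Agent.ChevTwSec
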