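import Cfsg.Agent.ChevTwSec.TwParabolic
import Cfsg.Agent.ChevTwOrd.F4

/-! Primes of centralisers of involutions in ²F₄(q) (owner: helper33). -/

set_option autoImplicit false

namespace Cfsg.Agent.ChevTwSec

open Cfsg.Lie Cfsg.Agent.ChevGrp Cfsg.Agent.ChevTw Cfsg.Agent.BNPair

variable {K : Type*} [Field K] [Fintype K] {m : ℕ} (hK : Fintype.card K = 2 ^ (2 * m + 1))

/-- The order of the Borel subgroup. -/
theorem card_B_F4 {len : ℕ → ℕ} (hR : RootTable chevF4 len) {P : Cfsg.BNPair ↥(grpF4 hK).Tw}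
    (hP : IsTwPair (grpF4 hK) hR P) :
    Nat.card ↥P.B = (2 ^ (2 * m + 1)) ^ 12 * (2 ^ (2 * m + 1) - 1) ^ 2 := by
  have hU := thm_S1090 hK
  rw [posUnipotent_eq (rulesF4 K)] at hU
  have hH := thm_S1110 hK
  rw [diagonalSubgroup_eq (rulesF4 K) hR] at hH
  rw [← hU, ← hH, ← Nat.card_prod]
  set S := glSys (rulesF4 K)
  have h0 := twF4_ok.isLongest (T := twistF4 hK) (fun _ => rfl) rfl
  symm
  refine Nat.card_eq_of_bijective (fun p =>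
    ⟨⟨(p.1 : GL chevF4.Idx K) * p.2, mul_mem (Subgroup.mem_inf.1 p.1.2).2 (Subgroup.mem_inf.1 p.2.2).2⟩,
      (hP.mem_B _).2 (mul_mem (S.Ubar_le_Bbar (Subgroup.mem_inf.1 p.1.2).1)
        (S.Hbar_le_Bbar (Subgroup.mem_inf.1 p.2.2).1))⟩) ⟨?_, ?_⟩
  · rintro ⟨⟨u, hu⟩, ⟨h, hh⟩⟩ ⟨⟨u', hu'⟩, ⟨h', hh'⟩⟩ e
    obtain ⟨e1, e2⟩ := S.Bbar_decomp_unique (rulesF4 K) hR (Subgroup.mem_inf.1 hu).1 (Subgroup.mem_inf.1 hu').1
      (Subgroup.mem_inf.1 hh).1 (Subgroup.mem_inf.1 hh').1 (congrArg (fun x => (x.1 : GL chevF4.Idx K)) e)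
    subst e1 e2
    rfl
  · rintro ⟨⟨b, hbT⟩, hb⟩
    obtain ⟨u, hu, h, hh, e⟩ := (grpF4 hK).B_decomp (rulesF4 K) hR ((orbF4 hK).comm_word hR _)
      (h0.invSet_eq hR) ((hP.mem_B _).1 hb) hbT
    exact ⟨(⟨u, hu⟩, ⟨h, hh⟩), Subtype.ext (Subtype.ext e.symm)⟩

theorem not_dvd_factors {r q : ℕ} (hr : r.Prime) (hq : 2 ≤ q) (h : ¬ r ∣ q * (q ^ 4 - 1)) :
    ¬ r ∣ q ∧ ¬ r ∣ q - 1 ∧ ¬ r ∣ q + 1 ∧ ¬ r ∣ q ^ 2 + 1 := by
  obtain ⟨c, rfl⟩ : ∃ c, q = c + 1 := ⟨q - 1, by omega⟩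
  have h4 : (c + 1) ^ 4 - 1 = c * ((c + 1 + 1) * ((c + 1) ^ 2 + 1)) := Nat.sub_eq_of_eq_add (by ring)
  rw [h4] at h
  simp only [hr.dvd_mul, Nat.add_sub_cancel] at h ⊢
  tauto

include hK in
set_option maxHeartbeats 1000000 in
theorem centralizer_primes (a b : ↥(twistedF4 K (2 ^ m))) (ha : orderOf a = 2) (hab : Commute a b) :
    ∀ r : ℕ, r.Prime → r ∣ orderOf b → r ∣ 2 ^ (2 * m + 1) * ((2 ^ (2 * m + 1)) ^ 4 - 1) := by
  intro r hr hrb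
  by_contra hrq
  haveI := Fact.mk hr
  haveI : Fact (Nat.Prime 2) := ⟨Nat.prime_two⟩
  haveI := charTwo_of_card hK
  obtain ⟨len, hR⟩ := (rulesF4 K).root
  have h0 := twF4_ok.isLongest (T := twistF4 hK) (fun _ => rfl) rfl
  obtain ⟨P, hPB, hPN, hPS⟩ := (grpF4 hK).exists_BNPair_gens (rulesF4 K) hR h0
  have hP : IsTwPair (grpF4 hK) hR P := ⟨hPB, hPN, hPS⟩
  have hqpos : 2 ≤ 2 ^ (2 * m + 1) := by
    calc 2 = 2 ^ 1 := (pow_one 2).symm
      _ ≤ _ := Nat.pow_le_pow_right (by norm_num) (by omega)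
  have hcop : Nat.Coprime (Nat.card ↥((glSys (rulesF4 K)).Hbar ⊓ (grpF4 hK).Tw)) 2 := by
    have h := thm_S1110 hK
    rw [diagonalSubgroup_eq (rulesF4 K) hR] at h
    rw [show (grpF4 hK).Tw = twistedF4 K (2 ^ m) from rfl, h, Nat.coprime_two_right,
      Nat.odd_pow_iff (by norm_num)]
    exact Nat.Even.sub_odd Nat.one_le_two_pow (by simp [Nat.even_pow]) odd_one
  -- conjugate into the Borel subgroup
  have hBc := card_B_F4 hK hR hP
  have hidx : ¬ 2 ∣ P.B.index := by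
    have h := P.B.card_mul_index
    rw [hBc, show Nat.card ↥(grpF4 hK).Tw = _ from Cfsg.Agent.ChevTwOrd.order_F4 hK] at h
    have heven : 2 ∣ 2 ^ (2 * m + 1) := dvd_pow_self 2 (by omega)
    generalize 2 ^ (2 * m + 1) = q at h hqpos heven
    obtain ⟨c, rfl⟩ := heven
    obtain ⟨d, rfl⟩ : ∃ d, c = d + 1 := ⟨c - 1, by omega⟩
    have h4 : (2 * (d + 1)) ^ 4 - 1 = (2 * d + 1) * ((2 * (d + 1) + 1) * ((2 * (d + 1)) ^ 2 + 1)) :=
      Nat.sub_eq_of_eq_add (by ring)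
    have h1 : 2 * (d + 1) - 1 = 2 * d + 1 := by omega
    rw [h4, h1] at h
    have hi : P.B.index = ((2 * (d + 1)) ^ 3 + 1) * ((2 * (d + 1) + 1) * ((2 * (d + 1)) ^ 2 + 1)) *
        ((2 * (d + 1)) ^ 6 + 1) := by
      apply Nat.eq_of_mul_eq_mul_left (show 0 < (2 * (d + 1)) ^ 12 * (2 * d + 1) ^ 2 by positivity)
      rw [h]
      ring
    rw [hi, ← even_iff_two_dvd]
    simp [Nat.even_mul, Nat.even_add_one, Nat.even_pow]
  obtain ⟨S0, hS0⟩ : ∃ S0 : Sylow 2 ↥(grpF4 hK).Tw, (S0 : Subgroup ↥(grpF4 hK).Tw) ≤ P.B := by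
    let S1 : Sylow 2 ↥P.B := default
    refine ⟨(S1.isPGroup'.map P.B.subtype).toSylow ?_, Subgroup.map_subtype_le _⟩
    rw [Subgroup.index_map_subtype]
    exact Nat.Prime.not_dvd_mul Nat.prime_two S1.not_dvd_index hidx
  let a0 : ↥(grpF4 hK).Tw := a
  let b0 : ↥(grpF4 hK).Tw := b
  have ha0 : orderOf a0 = 2 := ha
  have hap : IsPGroup 2 ↥(Subgroup.zpowers a0) :=
    IsPGroup.of_card (n := 1) (by rw [Nat.card_zpowers, ha0, pow_one])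
  obtain ⟨S, hS⟩ := hap.exists_le_sylow
  obtain ⟨h, hh⟩ := MulAction.exists_smul_eq ↥(grpF4 hK).Tw S S0
  set a1 := h * a0 * h⁻¹
  have ha1B : a1 ∈ P.B := hS0 (by
    rw [← hh]
    exact ⟨a0, hS (Subgroup.mem_zpowers a0), by simp [a1]⟩)
  have ha1o : orderOf a1 = 2 := by
    rw [← ha0]
    exact orderOf_injective (MulAut.conj h).toMonoidHom (MulAut.conj h).injective a0
  set b1 := h * b0 ^ (orderOf b / r) * h⁻¹
  have hb1o : orderOf b1 = r := by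
    refine (orderOf_injective (MulAut.conj h).toMonoidHom (MulAut.conj h).injective _).trans ?_
    exact orderOf_pow_orderOf_div (isOfFinOrder_of_finite b0).orderOf_pos.ne' hrb
  have hcomm : Commute a1 b1 :=
    ((show Commute a0 b0 from hab).pow_right (orderOf b / r)).map (MulAut.conj h).toMonoidHom
  have hsmem : ∀ J, (⟨(grpF4 hK).nJ (rulesF4 K) hR J, ((grpF4 hK).nJ_spec (rulesF4 K) hR J).2.2⟩ :
      ↥(grpF4 hK).Tw) ∈ P.S := fun J => by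
    rw [hPS]
    exact ⟨J, rfl⟩
  let J0 : Fin twF4.nOrb := ⟨0, by decide⟩
  let J1 : Fin twF4.nOrb := ⟨1, by decide⟩
  let s : P.S := ⟨_, hsmem J0⟩
  let t : P.S := ⟨_, hsmem J1⟩
  have hst : s ≠ t := fun e => by
    have e' : (grpF4 hK).nJ (rulesF4 K) hR J0 = (grpF4 hK).nJ (rulesF4 K) hR J1 :=
      congrArg (fun x : P.S => ((x : ↥(grpF4 hK).Tw) : GL chevF4.Idx K)) e
    have := (grpF4 hK).inj_nJ (rulesF4 K) hR (J := J0) (K := J1) (by rw [e', inv_mul_cancel]; exact one_mem _)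
    exact absurd (congrArg Fin.val this) (by simp [J0, J1])
  have hall : ∀ u : P.S, u = s ∨ u = t := fun u => by
    obtain ⟨J, hJ⟩ : (u : ↥(grpF4 hK).Tw) ∈ {n : ↥(grpF4 hK).Tw | ∃ J, (n : GL chevF4.Idx K) =
        (grpF4 hK).nJ (rulesF4 K) hR J} := hPS ▸ u.2
    fin_cases J
    · exact Or.inl (Subtype.ext (Subtype.ext hJ))
    · exact Or.inr (Subtype.ext (Subtype.ext hJ))
  have ha1ne : a1 ≠ 1 := fun e => by rw [e, orderOf_one] at ha1o; omega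
  have hno : ∀ g : ↥(grpF4 hK).Tw, g⁻¹ * a1 * g ∈ P.B → Asc P s g ∨ Asc P t g := fun g hg => by
    obtain ⟨u, hu⟩ := fixed_asc hP 2 h0 hcop ha1B ha1ne (k := 1)
      (by rw [pow_one, ← ha1o]; exact pow_orderOf_eq_one a1) hg
    rcases hall u with rfl | rfl
    · exact Or.inl hu
    · exact Or.inr hu
  have hfree : ∀ Q : Subgroup ↥(grpF4 hK).Tw, ¬ r ∣ Nat.card ↥Q → ∀ g, g⁻¹ * b1 * g ∉ Q := fun Q hQ g hg => by
    refine hQ ?_
    have h1 : orderOf (g⁻¹ * b1 * g) = r := by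
      rw [← hb1o]
      have := orderOf_injective (MulAut.conj g⁻¹).toMonoidHom (MulAut.conj g⁻¹).injective b1
      simpa using this
    exact h1 ▸ Subgroup.orderOf_dvd_natCard Q hg
  have hs' := card_parabolic hP h0 J0 s rfl
  have ht' := card_parabolic hP h0 J1 t rfl
  rw [card_fixF4 hK, if_pos rfl, hBc] at hs'
  rw [card_fixF4 hK, if_neg (by simp [J1]), hBc] at ht'
  have hbr : b1 ^ r = 1 := hb1o ▸ pow_orderOf_eq_one b1
  obtain ⟨n1, n2, n3, n4⟩ := not_dvd_factors hr hqpos hrq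
  set q := 2 ^ (2 * m + 1)
  have nB : ¬ r ∣ q ^ 12 * (q - 1) ^ 2 :=
    hr.not_dvd_mul (fun h => n1 (hr.dvd_of_dvd_pow h)) fun h => n2 (hr.dvd_of_dvd_pow h)
  have d0 := dvd_card_fix (r := r) hcomm hbr P.B (hfree _ (hBc ▸ nB))
  have d1 := dvd_card_fix (r := r) hcomm hbr (P.parabolic {(s : ↥(grpF4 hK).Tw)})
    (hfree _ (hs' ▸ hr.not_dvd_mul nB n3))
  have d2 := dvd_card_fix (r := r) hcomm hbr (P.parabolic {(t : ↥(grpF4 hK).Tw)})
    (hfree _ (ht' ▸ hr.not_dvd_mul nB n4))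
  have hcount := fix_count P s t hst hall ha1B hno
  have : r ∣ 1 := (Nat.dvd_add_right d0).1 (hcount ▸ dvd_add d1 d2)
  exact hr.one_lt.ne' (Nat.dvd_one.1 this)

end Cfsg.Agent.ChevTwSec
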