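import Cfsg.Agent.ChevTwSec.Fusion
import Cfsg.Agent.ChevTwSec.AltSection
import Cfsg.Agent.ChevTwOrd.F4

/-! Alternating sections of ²F₄(q) (owner: helper33). -/

set_option autoImplicit false

namespace Cfsg.Agent.ChevTwSec

open Cfsg.Lie Cfsg.Agent.ChevGrp Cfsg.Agent.ChevTw

theorem alt_section_F4 {K : Type*} [Field K] [Fintype K] {m : ℕ} (hK : Fintype.card K = 2 ^ (2 * m + 1))
    {r : ℕ} (H : Subgroup ↥(twistedF4 K (2 ^ m))) (ψ : ↥H →* ↥(alternatingGroup (Fin r)))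
    (hψ : Function.Surjective ψ) : r ≤ 6 := by
  haveI := charTwo_of_card hK
  obtain ⟨len, hR⟩ := (rulesF4 K).root
  set T0 := ((glSys (rulesF4 K)).Hbar ⊓ (twistedF4 K (2 ^ m))).subgroupOf (twistedF4 K (2 ^ m)) with hT0
  have hHc : Nat.card ↥((glSys (rulesF4 K)).Hbar ⊓ (twistedF4 K (2 ^ m))) = (2 ^ (2 * m + 1) - 1) ^ 2 := by
    have h := thm_S1110 hK
    rwa [diagonalSubgroup_eq (rulesF4 K) hR] at h
  have hT0c : Nat.card ↥T0 = (2 ^ (2 * m + 1) - 1) ^ 2 := by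
    rw [hT0, Nat.card_congr (Subgroup.subgroupOfEquivOfLe inf_le_right).toEquiv, hHc]
  obtain ⟨φ, -, hker⟩ := thm_S1111 hK
  rw [diagonalSubgroup_eq (rulesF4 K) hR] at hker
  refine no_alt_seven_section T0 ?_ ?_ ?_ H ψ hψ
  · intro a ha b hb
    exact Subtype.ext ((glSys (rulesF4 K)).Hbar_comm (rulesF4 K) hR (glSys_HMul (rulesF4 K) hR) _
      (Subgroup.mem_inf.1 (Subgroup.mem_subgroupOf.1 ha)).1 _
      (Subgroup.mem_inf.1 (Subgroup.mem_subgroupOf.1 hb)).1)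
  · -- the index is prime to seven
    have hcard := Cfsg.Agent.ChevTwOrd.order_F4 hK
    rw [← T0.card_mul_index, hT0c] at hcard
    have hq : 2 ≤ 2 ^ (2 * m + 1) := by
      calc 2 = 2 ^ 1 := (pow_one 2).symm
        _ ≤ _ := Nat.pow_le_pow_right (by norm_num) (by omega)
    have h7 : (2 ^ (2 * m + 1)) % 7 = 1 ∨ (2 ^ (2 * m + 1)) % 7 = 2 ∨ (2 ^ (2 * m + 1)) % 7 = 4 := by
      generalize 2 * m + 1 = e
      induction e with
      | zero => simp
      | succ e ih =>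
        rw [pow_succ, Nat.mul_mod]
        rcases ih with h | h | h <;> simp [h]
    generalize 2 ^ (2 * m + 1) = q at hcard hq h7
    obtain ⟨a, rfl⟩ : ∃ a, q = a + 1 := ⟨q - 1, by omega⟩
    have h4 : (a + 1) ^ 4 - 1 = a * ((a + 1 + 1) * ((a + 1) ^ 2 + 1)) :=
      Nat.sub_eq_of_eq_add (by ring)
    rw [h4, Nat.add_sub_cancel] at hcard
    have hidx : T0.index = (a + 1) ^ 12 * ((a + 1) ^ 3 + 1) * ((a + 1 + 1) * ((a + 1) ^ 2 + 1)) *
        ((a + 1) ^ 6 + 1) := by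
      apply Nat.eq_of_mul_eq_mul_left (pow_pos (show 0 < a by omega) 2)
      rw [hcard]
      ring
    rw [hidx, Nat.dvd_iff_mod_eq_zero]
    rcases h7 with h | h | h <;> simp [Nat.mul_mod, Nat.add_mod, Nat.pow_mod, h] <;> omega
  · intro g
    have hH : Nat.Coprime (Nat.card ↥((glSys (rulesF4 K)).Hbar ⊓ (twistedF4 K (2 ^ m)))) 2 := by
      rw [hHc, Nat.coprime_two_right, Nat.odd_pow_iff (by norm_num)]
      exact Nat.Even.sub_odd Nat.one_le_two_pow (by simp [Nat.even_pow]) odd_one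
    obtain ⟨n, hn, hfus⟩ := torus_fusion (grpF4 hK) hR
      (twF4_ok.isLongest (T := twistF4 hK) (fun _ => rfl) rfl) 2 hH g.2
    refine ⟨⟨n, (Subgroup.mem_inf.1 hn).2⟩, ?_, ?_, ?_⟩
    · rw [← monomialSubgroup_eq (rulesF4 K) hR] at hn
      set n' : ↥(chevF4.monomialSubgroup K ⊓ (twistedF4 K (2 ^ m))) := ⟨n, hn⟩
      have h1 : n' ^ 16 ∈ φ.ker := by
        rw [MonoidHom.mem_ker, map_pow, show 16 = Fintype.card (DihedralGroup 8) from (by
          rw [DihedralGroup.card]), pow_card_eq_one]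
      rw [hker] at h1
      exact h1
    · intro x hx
      obtain ⟨hx1, hx2⟩ := Subgroup.mem_inf.1 (Subgroup.mem_subgroupOf.1 hx)
      refine Subgroup.mem_subgroupOf.2 (Subgroup.mem_inf.2 ⟨?_, Subtype.prop _⟩)
      exact Sys.conj_mem_Hbar (rulesF4 K) hR (Subgroup.mem_inf.1 hn).1 hx1
    · intro x hx hgx
      exact Subtype.ext (hfus _ (Subgroup.mem_subgroupOf.1 hx) (Subgroup.mem_subgroupOf.1 hgx))

end Cfsg.Agent.ChevTwSec
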